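import Cfsg.Agent.Lib.Helper21.O10.Defs
import Cfsg.Agent.Lib.Helper57.OE.Base
import Cfsg.Agent.Lib.Helper62.OE.T6

set_option autoImplicit false
set_option linter.unusedSectionVars false
set_option linter.unusedVariables false

/-! O10 farm (helper21), piece [T1] (adapted from helper62's `o_tensor_two`). -/

namespace Cfsg.Agent.Lib.Helper91.O10

open Cfsg Cfsg.Geo Matrix Cfsg.Agent.Lib.Helper13.Asch Cfsg.Agent.Lib.Helper90.Sp Cfsg.Agent.Lib.Helper57.OE
  Cfsg.Agent.Lib.Helper21.O10 Cfsg.Agent.Lib.Helper99.Sp Cfsg.Agent.Lib.Helper62.OE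
open scoped Kronecker MatrixGroups commutatorElement

variable {ι : Type} [Fintype ι] [DecidableEq ι] {F : Type*} [Field F] {Q : (ι → F) → F}

theorem kap_skew {G : Matrix (Fin 2) (Fin 2) F} (hs : Gᵀ = G) : (kap G)ᵀ * G = -(G * kap G) := by
  have h10 := sym10 hs
  ext i j
  fin_cases i <;> fin_cases j <;> simp [kap, Matrix.mul_apply, Fin.sum_univ_two, h10]

theorem neg_kron {m n : Type*} (X : Matrix m m F) (Y : Matrix n n F) : (-X) ⊗ₖ Y = -(X ⊗ₖ Y) := by
  ext ⟨i, j⟩ ⟨i', j'⟩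
  simp [Matrix.kroneckerMap_apply]

theorem formOfGram_eq {κ : Type} [Fintype κ] (G : Matrix κ κ F) (x y : κ → F) :
    formOfGram id G x y = x ⬝ᵥ (G *ᵥ y) := by
  simp only [formOfGram, dotProduct, mulVec, Finset.mul_sum, mul_assoc, id]

theorem skewJ_of_tensor_two [Fintype F] [Nonempty ι] (h2 : (2 : F) ≠ 0)
    (hQ : IsNondegenerateQuadraticForm Q) {H : Subgroup (GL ι F)}
    (hH : FixesQuadForm (matrixSet H) Q) {b : ℕ} (e : ι ≃ Fin 2 × Fin b) (P : GL ι F)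
    {G₁ : Matrix (Fin 2) (Fin 2) F} {G₂ : Matrix (Fin b) (Fin b) F}
    (hG : TensGram (QuadraticMap.polar Q) e P G₁ G₂) (h1 : IsUnit G₁.det) (h2' : IsUnit G₂.det)
    (hs1 : G₁ᵀ = G₁) (hHt : H ≤ tensorProductSubgroup 2 b e P) : SkewJ Q H := by
  set K : Matrix (Fin 2 × Fin b) (Fin 2 × Fin b) F :=
    kap G₁ ⊗ₖ (1 : Matrix (Fin b) (Fin b) F) with hK
  set k : Matrix ι ι F := cj e P K with hkdef
  have hk : k * k = (-G₁.det) • 1 := by
    rw [hkdef, cj_mul, hK, ← Matrix.mul_kronecker_mul, Matrix.one_mul, kap_sq hs1,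
      Matrix.smul_kronecker, Matrix.one_kronecker_one, cj_smul, cj_one]
  have hGK : Kᵀ * (G₁ ⊗ₖ G₂) = -((G₁ ⊗ₖ G₂) * K) := by
    rw [hK, ← Matrix.kroneckerMap_transpose, Matrix.transpose_one, ← Matrix.mul_kronecker_mul,
      ← Matrix.mul_kronecker_mul, Matrix.one_mul, Matrix.mul_one, kap_skew hs1, neg_kron]
  have hGK' : (G₁ ⊗ₖ G₂) * K = -(Kᵀ * (G₁ ⊗ₖ G₂)) := by rw [hGK, neg_neg]
  refine ⟨k, -G₁.det, neg_ne_zero.2 h1.ne_zero, hk, ?_, ?_⟩
  · intro u v
    obtain ⟨u', rfl⟩ := exists_coord e P u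
    obtain ⟨v', rfl⟩ := exists_coord e P v
    rw [hkdef, cj_mulVec, cj_mulVec, hG, hG, formOfGram_eq, formOfGram_eq, Matrix.mulVec_mulVec,
      hGK', Matrix.neg_mulVec, dotProduct_neg, neg_neg, ← Matrix.mulVec_mulVec,
      Matrix.dotProduct_mulVec u', Matrix.vecMul_transpose]
  intro h hh
  have hfix : ∀ u v, QuadraticMap.polar Q ((h : Matrix ι ι F) *ᵥ u) ((h : Matrix ι ι F) *ᵥ v) =
      QuadraticMap.polar Q u v := by
    intro u v
    have hq := hH (h : Matrix ι ι F) ⟨h, hh, rfl⟩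
    unfold QuadraticMap.polar
    rw [← Matrix.mulVec_add, hq, hq, hq]
  obtain ⟨x, y, c, hxy, hc1, _⟩ := tens_similitude e P hG h1 h2' h (hHt hh) hfix
  have hx : IsUnit (x : Matrix (Fin 2) (Fin 2) F).det :=
    (Matrix.isUnit_iff_isUnit_det _).1 x.isUnit
  have hcj : (h : Matrix ι ι F) = cj e P ((x : Matrix _ _ F) ⊗ₖ (y : Matrix _ _ F)) := hxy
  set m : F := (c : F) / (x : Matrix (Fin 2) (Fin 2) F).det with hm
  have hconj := kap_conj hs1 h1 hx hc1
  have hhk : (h : Matrix ι ι F) * k = m • (k * (h : Matrix ι ι F)) := by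
    rw [hcj, hkdef, cj_mul, cj_mul, hK, ← Matrix.mul_kronecker_mul, ← Matrix.mul_kronecker_mul,
      Matrix.mul_one, Matrix.one_mul, hconj, Matrix.smul_kronecker, cj_smul]
  have hi2 : (h : Matrix ι ι F) * ((h⁻¹ : GL ι F) : Matrix ι ι F) = 1 := by
    rw [← Units.val_mul, mul_inv_cancel, Units.val_one]
  have hconj2 : (h : Matrix ι ι F) * k * ((h⁻¹ : GL ι F) : Matrix ι ι F) = m • k := by
    rw [hhk, Matrix.smul_mul, mul_assoc, hi2, mul_one]
  have hmm : m * m = 1 := by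
    have e1 : ((h : Matrix ι ι F) * k * ((h⁻¹ : GL ι F) : Matrix ι ι F)) *
        ((h : Matrix ι ι F) * k * ((h⁻¹ : GL ι F) : Matrix ι ι F)) = (-G₁.det) • 1 := by
      have hi1 : ((h⁻¹ : GL ι F) : Matrix ι ι F) * (h : Matrix ι ι F) = 1 := by
        rw [← Units.val_mul, inv_mul_cancel, Units.val_one]
      calc _ = (h : Matrix ι ι F) * k * (((h⁻¹ : GL ι F) : Matrix ι ι F) * (h : Matrix ι ι F)) * k *
            ((h⁻¹ : GL ι F) : Matrix ι ι F) := by simp only [mul_assoc]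
        _ = (h : Matrix ι ι F) * (k * k) * ((h⁻¹ : GL ι F) : Matrix ι ι F) := by
            rw [hi1, mul_one]; simp only [mul_assoc]
        _ = _ := by rw [hk, Matrix.mul_smul, Matrix.smul_mul, mul_one, hi2]
    rw [hconj2, Matrix.smul_mul, Matrix.mul_smul, hk, smul_smul, smul_smul] at e1
    obtain ⟨i⟩ := ‹Nonempty ι›
    have e2 := congrFun (congrFun e1 i) i
    simp only [Matrix.smul_apply, Matrix.one_apply_eq, smul_eq_mul, mul_one] at e2
    have hd0 : -G₁.det ≠ 0 := neg_ne_zero.2 h1.ne_zero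
    exact mul_right_cancel₀ hd0 (by rw [e2, one_mul])
  have : (m - 1) * (m + 1) = 0 := by linear_combination hmm
  rcases mul_eq_zero.1 this with e | e
  · left
    rw [hconj2, sub_eq_zero.1 e, one_smul]
  · right
    rw [hconj2, eq_neg_of_add_eq_zero_left e, neg_smul, one_smul]

end Cfsg.Agent.Lib.Helper91.O10
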