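import Cfsg.Agent.Lib.Helper21.O10.Defs
import Cfsg.Agent.Lib.Helper57.OE.Base
import Cfsg.Agent.Lib.Helper62.OE.T7

set_option autoImplicit false
set_option linter.unusedSectionVars false
set_option linter.unusedVariables false

/-! O10 farm (helper21), piece [T2] (adapted from helper62's `rfield_of_sqrtJ`). -/

namespace Cfsg.Agent.Lib.Helper91.O10

open Cfsg Cfsg.Geo Matrix Cfsg.Agent.Lib.Helper13.Asch Cfsg.Agent.Lib.Helper90.Sp Cfsg.Agent.Lib.Helper57.OE
  Cfsg.Agent.Lib.Helper21.O10
open scoped Kronecker MatrixGroups commutatorElement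

variable {ι : Type} [Fintype ι] [DecidableEq ι] {F : Type*} [Field F] {Q : (ι → F) → F}

open Cfsg.Agent.Lib.Helper62.OE.T7 in
theorem rf2_of_skewJ [Nonempty ι] {H : Subgroup (GL ι F)} (J : Matrix ι ι F) (d : F)
    (hd : ¬ IsSquare d) (hJJ : J * J = d • 1)
    (hadj : ∀ u v, QuadraticMap.polar Q (J *ᵥ u) v = - QuadraticMap.polar Q u (J *ᵥ v))
    (hb : IsBilinearForm (QuadraticMap.polar Q))
    (hperm : ∀ h ∈ H, (h : Matrix ι ι F) * J * ((h⁻¹ : GL ι F) : Matrix ι ι F) = J ∨
      (h : Matrix ι ι F) * J * ((h⁻¹ : GL ι F) : Matrix ι ι F) = -J) : RF2 Q H := by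
  refine ⟨KJ J d hJJ, ⟨?_, ?_, ?_⟩, ?_, ?_⟩
  · rintro _ ⟨a, b, rfl⟩ _ ⟨a', b', rfl⟩
    rw [mul_formula hJJ, mul_formula hJJ]
    congr 2 <;> ring
  · rintro _ ⟨a, b, rfl⟩ hx
    have hN : a * a - d * b * b ≠ 0 := by
      intro hN
      by_cases hb : b = 0
      · subst hb
        have ha : a = 0 := by
          have : a * a = 0 := by linear_combination hN
          exact mul_self_eq_zero.1 this
        apply hx
        rw [ha, zero_smul, zero_smul, add_zero]
      · apply hd
        refine ⟨a / b, ?_⟩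
        field_simp
        linear_combination -hN
    refine ⟨_, ⟨(a * a - d * b * b)⁻¹ * a, -((a * a - d * b * b)⁻¹ * b), rfl⟩, ?_⟩
    rw [mul_formula hJJ]
    have e1 : a * ((a * a - d * b * b)⁻¹ * a) + d * b * -((a * a - d * b * b)⁻¹ * b) = 1 := by
      calc _ = (a * a - d * b * b) * (a * a - d * b * b)⁻¹ := by ring
        _ = 1 := mul_inv_cancel₀ hN
    have e2 : a * -((a * a - d * b * b)⁻¹ * b) + b * ((a * a - d * b * b)⁻¹ * a) = 0 := by
      ring
    rw [e1, e2, one_smul, zero_smul, add_zero]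
  · have hli : LinearIndependent F ![(1 : Matrix ι ι F), J] := by
      rw [LinearIndependent.pair_iff]
      intro s t hst
      exact indep hJJ hd s t hst
    have hspan : Subalgebra.toSubmodule (KJ J d hJJ) =
        Submodule.span F (Set.range ![(1 : Matrix ι ι F), J]) := by
      ext x
      rw [Subalgebra.mem_toSubmodule, mem_KJ]
      simp only [Matrix.range_cons, Matrix.range_empty, Set.union_empty, Set.singleton_union]
      rw [Submodule.mem_span_pair]
      constructor
      · rintro ⟨a, b, rfl⟩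
        exact ⟨a, b, rfl⟩
      · rintro ⟨a, b, rfl⟩
        exact ⟨a, b, rfl⟩
    have h1 := finrank_span_eq_card hli
    rw [← hspan] at h1
    simpa using h1
  · rintro _ ⟨a, b, rfl⟩
    refine ⟨a • (1 : Matrix ι ι F) + (-b) • J, ⟨a, -b, rfl⟩, ?_⟩
    intro u v
    simp only [Matrix.smul_mulVec, Matrix.add_mulVec, Matrix.one_mulVec]
    rw [hb.add_left, hb.smul_left, hb.smul_left, hb.add_right, hb.smul_right, hb.smul_right, hadj]
    ring
  · have hfwd : ∀ g ∈ H, ∀ k ∈ KJ J d hJJ,
        (g : Matrix ι ι F) * k * ((g⁻¹ : GL ι F) : Matrix ι ι F) ∈ KJ J d hJJ := by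
      rintro g hg _ ⟨a, b, rfl⟩
      have h2 : (g : Matrix ι ι F) * ((g⁻¹ : GL ι F) : Matrix ι ι F) = 1 := by
        rw [← Units.val_mul, mul_inv_cancel, Units.val_one]
      have e : (g : Matrix ι ι F) * (a • (1 : Matrix ι ι F) + b • J) *
          ((g⁻¹ : GL ι F) : Matrix ι ι F) = a • (1 : Matrix ι ι F) +
            b • ((g : Matrix ι ι F) * J * ((g⁻¹ : GL ι F) : Matrix ι ι F)) := by
        rw [mul_add, add_mul, Matrix.mul_smul, Matrix.mul_smul, Matrix.smul_mul, Matrix.smul_mul,
          mul_one, h2]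
      rw [e]
      rcases hperm g hg with e' | e'
      · rw [e']
        exact ⟨a, b, rfl⟩
      · rw [e']
        exact ⟨a, -b, by rw [smul_neg, neg_smul]⟩
    intro g hg k
    constructor
    · exact hfwd g hg k
    · intro hk
      have := hfwd g⁻¹ (H.inv_mem hg) _ hk
      rw [inv_inv] at this
      have h1 : ((g⁻¹ : GL ι F) : Matrix ι ι F) * (g : Matrix ι ι F) = 1 := by
        rw [← Units.val_mul, inv_mul_cancel, Units.val_one]
      have e : ((g⁻¹ : GL ι F) : Matrix ι ι F) *
          ((g : Matrix ι ι F) * k * ((g⁻¹ : GL ι F) : Matrix ι ι F)) * (g : Matrix ι ι F) = k := by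
        calc _ = (((g⁻¹ : GL ι F) : Matrix ι ι F) * (g : Matrix ι ι F)) * k *
              (((g⁻¹ : GL ι F) : Matrix ι ι F) * (g : Matrix ι ι F)) := by
              simp only [mul_assoc]
          _ = k := by rw [h1, one_mul, mul_one]
      rwa [e] at this

end Cfsg.Agent.Lib.Helper91.O10
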