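import Cfsg.Agent.Lib.Helper21.O10.Defs
import Cfsg.Agent.Lib.Helper57.OE.Base

set_option autoImplicit false
set_option linter.unusedSectionVars false
set_option linter.unusedVariables false

/-! O10 farm (helper21), piece [T3]. -/

namespace Cfsg.Agent.Lib.Helper91.O10

open Cfsg Cfsg.Geo Matrix Cfsg.Agent.Lib.Helper13.Asch Cfsg.Agent.Lib.Helper90.Sp Cfsg.Agent.Lib.Helper57.OE
  Cfsg.Agent.Lib.Helper21.O10
open scoped Kronecker MatrixGroups commutatorElement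

variable {ι : Type} [Fintype ι] [DecidableEq ι] {F : Type*} [Field F] {Q : (ι → F) → F}

theorem idempotent_of_skewJ (h2 : (2 : F) ≠ 0) (hb : IsBilinearForm (QuadraticMap.polar Q))
    {H : Subgroup (GL ι F)} (J : Matrix ι ι F) (c : F) (hc : c ≠ 0) (hJJ : J * J = (c * c) • 1)
    (hadj : ∀ u v, QuadraticMap.polar Q (J *ᵥ u) v = - QuadraticMap.polar Q u (J *ᵥ v))
    (hperm : ∀ h ∈ H, (h : Matrix ι ι F) * J * ((h⁻¹ : GL ι F) : Matrix ι ι F) = J ∨
      (h : Matrix ι ι F) * J * ((h⁻¹ : GL ι F) : Matrix ι ι F) = -J) :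
    ∃ e : Matrix ι ι F, e * e = e ∧
      (∀ u v, QuadraticMap.polar Q (e *ᵥ u) v = QuadraticMap.polar Q u ((1 - e) *ᵥ v)) ∧
      ∀ h ∈ H, (h : Matrix ι ι F) * e * ((h⁻¹ : GL ι F) : Matrix ι ι F) = e ∨
        (h : Matrix ι ι F) * e * ((h⁻¹ : GL ι F) : Matrix ι ι F) = 1 - e := by
  have he1 : (1 : Matrix ι ι F) - (2⁻¹ : F) • (1 + c⁻¹ • J) = (2⁻¹ : F) • (1 + (-c⁻¹) • J) := by
    match_scalars <;> field_simp <;> ring
  refine ⟨(2⁻¹ : F) • (1 + c⁻¹ • J), ?_, ?_, ?_⟩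
  · simp only [Matrix.smul_mul, Matrix.mul_smul, add_mul, mul_add, one_mul, mul_one, hJJ, smul_add,
      smul_smul]
    match_scalars <;> field_simp <;> ring
  · intro u v
    rw [he1]
    simp only [Matrix.smul_mulVec, Matrix.add_mulVec, Matrix.one_mulVec]
    rw [hb.smul_left, hb.add_left, hb.smul_left, hb.smul_right, hb.add_right, hb.smul_right, hadj]
    ring
  · intro h hh
    have h1 : (h : Matrix ι ι F) * ((h⁻¹ : GL ι F) : Matrix ι ι F) = 1 := by
      rw [← Units.val_mul, mul_inv_cancel, Units.val_one]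
    have h3 : (h : Matrix ι ι F) * ((2⁻¹ : F) • (1 + c⁻¹ • J)) * ((h⁻¹ : GL ι F) : Matrix ι ι F)
        = (2⁻¹ : F) • (1 + c⁻¹ • ((h : Matrix ι ι F) * J * ((h⁻¹ : GL ι F) : Matrix ι ι F))) := by
      rw [Matrix.mul_smul, Matrix.smul_mul, mul_add, add_mul, mul_one, h1, Matrix.mul_smul, Matrix.smul_mul]
    rcases hperm h hh with h4 | h4
    · left
      rw [h3, h4]
    · right
      rw [h3, h4, he1, smul_neg, neg_smul]

end Cfsg.Agent.Lib.Helper91.O10
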